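import Cfsg.Agent.H94.S460.M.M3.RChk0

set_option autoImplicit false
set_option linter.all false

namespace Cfsg.Agent.H94.S460.M

open Cfsg.Agent.H35 Cfsg.Spor

theorem m3_rall : ∀ p, p < 174 → m3_rf p = true := by
  apply allR_blocks m3_rf 174 10 1 _ (by decide)
  intro k hk
  interval_cases k
  · exact m3_rchk_0

theorem m3_circ_ok : circChk (fullW m3_rws m3_prels) m3_circT 0 m3_ccert = true := by decide +kernel
theorem m3_hc_ok : allR (fun c => hcChk m3_rsw m3_hc1T m3_hc2T c) 4 2 0 = true := by decide +kernel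
theorem m3_h0 : RData.aord (m3_rd.ent 0 1) = 0 := by decide +kernel

end Cfsg.Agent.H94.S460.M
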